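import Cfsg.Agent.Lib.Singular.Basic
import Cfsg.Agent.Lib.PGroupFrattini

/-! # Extraspecial subgroups of an extraspecial group -/

set_option autoImplicit false

namespace Cfsg.Agent.Lib.Singular

open Cfsg
open scoped commutatorElement

variable {G : Type*} [Group G] [Finite G]

theorem isExtraspecial_sub {P K : Subgroup G} {z : G} (hP : Good P z) (hPp : IsPGroup 2 ↥P) (hKP : K ≤ P)
    (hzK : z ∈ K) (hcent : ∀ c ∈ K, (∀ k ∈ K, k * c = c * k) → c = 1 ∨ c = z)
    (hne : ∃ a ∈ K, ∃ b ∈ K, a * b ≠ b * a) : Cfsg.IsExtraspecial 2 ↥K := by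
  haveI : Fact (Nat.Prime 2) := ⟨Nat.prime_two⟩
  have hp : IsPGroup 2 ↥K := hPp.to_le hKP
  let zK : ↥K := ⟨z, hzK⟩
  have hzc : zK ∈ Subgroup.center ↥K :=
    Subgroup.mem_center_iff.2 fun k => Subtype.ext (hP.le k (hKP k.2))
  have hctr : ∀ c, c ∈ Subgroup.center ↥K → c = 1 ∨ c = zK := by
    intro c hc
    refine (hcent c c.2 fun k hk => ?_).imp (fun e => Subtype.ext e) (fun e => Subtype.ext e)
    exact congrArg Subtype.val (Subgroup.mem_center_iff.1 hc ⟨k, hk⟩)
  have hz_or : ∀ c : ↥K, (c : G) = 1 ∨ (c : G) = z → c ∈ Subgroup.center ↥K := by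
    rintro c (e | e)
    · rw [show c = 1 from Subtype.ext e]; exact one_mem _
    · rw [show c = zK from Subtype.ext e]; exact hzc
  have hcomm_le : commutator ↥K ≤ Subgroup.center ↥K := by
    rw [commutator_def, Subgroup.commutator_le]
    intro a _ b _
    apply hz_or
    simpa [commutatorElement_def] using hP.comm a (hKP a.2) b (hKP b.2)
  have hle : Subgroup.center ↥K ≤ commutator ↥K := by
    obtain ⟨a, ha, b, hb, hab⟩ := hne
    have hm : zK ∈ commutator ↥K := by
      have e : a * b * a⁻¹ * b⁻¹ = z :=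
        (hP.comm a (hKP ha) b (hKP hb)).resolve_left (fun e => hab ((comm_iff _ _).1 e))
      rw [show zK = ⁅(⟨a, ha⟩ : ↥K), ⟨b, hb⟩⁆ from Subtype.ext (by rw [commutatorElement_def]; exact e.symm), commutator_def]
      exact Subgroup.commutator_mem_commutator (Subgroup.mem_top _) (Subgroup.mem_top _)
    intro c hc
    rcases hctr c hc with rfl | rfl
    exacts [one_mem _, hm]
  have heq : commutator ↥K = Subgroup.center ↥K := le_antisymm hcomm_le hle
  refine ⟨⟨hp, le_antisymm ?_ ?_, heq⟩, ?_⟩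
  · refine PGroupFrattini.frattini_le Nat.prime_two _ hcomm_le fun x => hz_or _ ?_
    simpa [pow_two] using hP.sqr x (hKP x.2)
  · exact hle.trans (PGroupFrattini.commutator_le_frattini hp)
  · rw [Nat.card_eq_two_iff' (1 : Subgroup.center ↥K)]
    refine ⟨⟨zK, hzc⟩, fun e => hP.ne (congrArg (fun q : Subgroup.center ↥K => ((q : ↥K) : G)) e), ?_⟩
    rintro ⟨c, hc⟩ hc1
    rcases hctr c hc with rfl | rfl
    · exact absurd rfl hc1
    · rfl

end Cfsg.Agent.Lib.Singular
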